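import Cfsg.Agent.S0878
import Cfsg.Agent.Lib.Solv.Frobenius
import Cfsg.Agent.Lib.Characters.Integrality

/-!
# Zassenhaus groups: orders, fixed points and kernels
-/

set_option autoImplicit false
set_option linter.style.haveILetI false
set_option linter.unusedSectionVars false

namespace Cfsg.Lib.Zassenhaus

open MulAction

variable {G Ω : Type*} [Group G] [Finite G] [MulAction G Ω] [Fintype Ω]
  (hZ : Cfsg.IsZassenhausGroup G Ω)

/-- The two-point stabilizer. -/
abbrev D (G : Type*) {Ω : Type*} [Group G] [MulAction G Ω] (a b : Ω) : Subgroup G :=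
  MulAction.stabilizer G a ⊓ MulAction.stabilizer G b

theorem mem_D {a b : Ω} {g : G} : g ∈ D G a b ↔ g • a = a ∧ g • b = b := Iff.rfl

include hZ

theorem exists_move {a b c d : Ω} (hab : a ≠ b) (hcd : c ≠ d) : ∃ g : G, g • a = c ∧ g • b = d :=
  MulAction.is_two_pretransitive_iff.mp hZ.2.1 hab hcd

theorem three {g : G} {a b c : Ω} (hab : a ≠ b) (hbc : b ≠ c) (hac : a ≠ c) (ha : g • a = a)
    (hb : g • b = b) (hc : g • c = c) : g = 1 := hZ.2.2.1 g a b c hab hbc hac ha hb hc

theorem eq_one {g : G} (h : ∀ c : Ω, g • c = c) : g = 1 :=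
  hZ.1.eq_of_smul_eq_smul fun c => by rw [h, one_smul]

theorem exists_fixer {a b : Ω} (hab : a ≠ b) : ∃ g ∈ D G a b, g ≠ 1 := by
  obtain ⟨g₀, hg₀, a₀, b₀, hab₀, hga, hgb⟩ := hZ.2.2.2.1
  obtain ⟨w, hwa, hwb⟩ := exists_move hZ hab₀ hab
  refine ⟨w * g₀ * w⁻¹, mem_D.mpr ⟨?_, ?_⟩, by simpa using hg₀⟩
  · rw [mul_smul, inv_smul_eq_iff.mpr hwa.symm, mul_smul, hga, hwa]
  · rw [mul_smul, inv_smul_eq_iff.mpr hwb.symm, mul_smul, hgb, hwb]

theorem three_le : 3 ≤ Fintype.card Ω := by
  classical
  obtain ⟨g₀, hg₀, a₀, b₀, hab₀, hga, hgb⟩ := hZ.2.2.2.1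
  by_contra hlt
  refine hg₀ (eq_one hZ fun c => ?_)
  by_contra hc
  have h1 : c ≠ a₀ := fun h => hc (h ▸ hga)
  have h2 : c ≠ b₀ := fun h => hc (h ▸ hgb)
  have hc3 : ({c, a₀, b₀} : Finset Ω).card = 3 := by simp [h1, h2, hab₀]
  have := Finset.card_le_univ ({c, a₀, b₀} : Finset Ω)
  omega

theorem exists_ne' (a : Ω) : ∃ b : Ω, a ≠ b := by
  have := three_le hZ
  obtain ⟨b, hb⟩ := Fintype.exists_ne_of_one_lt_card (by omega) a
  exact ⟨b, hb.symm⟩

theorem pretransitive : MulAction.IsPretransitive G Ω := by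
  refine ⟨fun a c => ?_⟩
  by_cases hac : a = c
  · exact ⟨1, by rw [one_smul, hac]⟩
  obtain ⟨g, h, -⟩ := exists_move hZ hac (Ne.symm hac)
  exact ⟨g, h⟩

theorem card_stab (a : Ω) : Nat.card (stabilizer G a) * Fintype.card Ω = Nat.card G := by
  have := pretransitive hZ
  rw [← Nat.card_eq_fintype_card, ← MulAction.index_stabilizer_of_transitive G a,
    Subgroup.card_mul_index]

theorem card_stab_eq (a c : Ω) : Nat.card (stabilizer G c) = Nat.card (stabilizer G a) :=
  Nat.eq_of_mul_eq_mul_right (by have := three_le hZ; omega) ((card_stab hZ c).trans (card_stab hZ a).symm)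

theorem card_D_mul {a b : Ω} (hab : a ≠ b) :
    Nat.card (D G a b) * (Fintype.card Ω - 1) = Nat.card (stabilizer G a) := by
  classical
  have horb : MulAction.orbit (stabilizer G a) b = {x | x ≠ a} := by
    ext x
    constructor
    · rintro ⟨s, rfl⟩ h
      refine hab (MulAction.injective (s : G) ?_)
      show (s : G) • a = (s : G) • b
      rw [MulAction.mem_stabilizer_iff.mp s.2]
      exact h.symm
    · intro hx
      obtain ⟨g, hg1, hg2⟩ := exists_move hZ hab (Ne.symm hx)
      exact ⟨⟨g, hg1⟩, hg2⟩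
  rw [← (MulAction.stabilizer (stabilizer G a) b).card_mul_index, MulAction.index_stabilizer, horb]
  congr 1
  · exact Nat.card_congr
      { toFun := fun g => ⟨⟨g.1, g.2.1⟩, g.2.2⟩
        invFun := fun s => ⟨s.1.1, s.1.2, s.2⟩
        left_inv := fun _ => rfl
        right_inv := fun _ => rfl }
  · rw [Set.ncard_eq_toFinset_card',
      show ({x | x ≠ a} : Set Ω).toFinset = Finset.univ.erase a by ext; simp,
      Finset.card_erase_of_mem (Finset.mem_univ a), Finset.card_univ]

theorem card_D_eq {a b c d : Ω} (hab : a ≠ b) (hcd : c ≠ d) :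
    Nat.card (D G c d) = Nat.card (D G a b) := by
  have h1 := card_D_mul hZ hab
  have h2 := card_D_mul hZ hcd
  rw [card_stab_eq hZ a c, ← h1] at h2
  exact Nat.eq_of_mul_eq_mul_right (by have := three_le hZ; omega) h2

section fixed

/-- The number of fixed points. -/
noncomputable def fx (g : G) : ℕ :=
  open Classical in (Finset.univ.filter fun c : Ω => g • c = c).card

omit hZ in
theorem fx_one : fx (Ω := Ω) (1 : G) = Fintype.card Ω := by
  classical
  simp [fx]

theorem fx_le_two {g : G} (hg : g ≠ 1) : fx (Ω := Ω) g ≤ 2 := by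
  classical
  by_contra h
  obtain ⟨x, y, z, hx, hy, hz, hxy, hxz, hyz⟩ := Finset.two_lt_card_iff.mp (by
    rw [fx] at h; omega : 2 < (Finset.univ.filter fun c : Ω => g • c = c).card)
  simp only [Finset.mem_filter, Finset.mem_univ, true_and] at hx hy hz
  exact hg (three hZ hxy hyz hxz hx hy hz)

theorem fx_one_iff {g : G} (hg : g ≠ 1) (hΩ : fx (Ω := Ω) g = 1) : ∃ a : Ω, g • a = a ∧
    ∀ c : Ω, g • c = c → c = a := by
  classical
  rw [fx, Finset.card_eq_one] at hΩ
  obtain ⟨a, ha⟩ := hΩ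
  refine ⟨a, ?_, fun c hc => ?_⟩
  · have : a ∈ (Finset.univ.filter fun c : Ω => g • c = c) := by rw [ha]; exact Finset.mem_singleton_self a
    exact (Finset.mem_filter.mp this).2
  · have : c ∈ (Finset.univ.filter fun c : Ω => g • c = c) := Finset.mem_filter.mpr ⟨Finset.mem_univ _, hc⟩
    rw [ha] at this
    exact Finset.mem_singleton.mp this

variable [Fintype G]

theorem sum_fx : ∑ g : G, fx (Ω := Ω) g = Nat.card G := by
  classical
  obtain ⟨a⟩ : Nonempty Ω := Fintype.card_pos_iff.mp (by have := three_le hZ; omega)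
  simp only [fx, Finset.card_filter]
  rw [Finset.sum_comm, Finset.sum_congr rfl fun c _ => show
    (∑ g : G, if g • c = c then 1 else 0) = Nat.card (stabilizer G a) by
      rw [← card_stab_eq hZ a c, Nat.card_eq_fintype_card, ← Finset.card_filter, Fintype.card_subtype]
      rfl,
    Finset.sum_const, Finset.card_univ, smul_eq_mul, mul_comm, card_stab hZ]

theorem sum_fx_sq : ∑ g : G, fx (Ω := Ω) g ^ 2 = 2 * Nat.card G := by
  classical
  have e1 : ∀ g : G, fx (Ω := Ω) g ^ 2 = fx (Ω := Ω) g +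
      ∑ c : Ω, ∑ d ∈ Finset.univ.erase c, if g • c = c ∧ g • d = d then 1 else 0 := by
    intro g
    simp only [fx, Finset.card_filter, sq, Finset.sum_mul_sum]
    rw [← Finset.sum_add_distrib]
    refine Finset.sum_congr rfl fun c _ => ?_
    rw [← Finset.add_sum_erase _ _ (Finset.mem_univ c)]
    congr 1
    · by_cases h : g • c = c <;> simp [h]
    · exact Finset.sum_congr rfl fun d _ => by by_cases h : g • c = c <;> simp [h]
  obtain ⟨a⟩ : Nonempty Ω := Fintype.card_pos_iff.mp (by have := three_le hZ; omega)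
  obtain ⟨b, hab⟩ := exists_ne' hZ a
  rw [Finset.sum_congr rfl fun g _ => e1 g, Finset.sum_add_distrib, sum_fx hZ, two_mul]
  congr 1
  rw [Finset.sum_comm, Finset.sum_congr rfl fun c _ => Finset.sum_comm]
  rw [Finset.sum_congr rfl fun c _ => Finset.sum_congr rfl fun d hd => show
    (∑ g : G, if g • c = c ∧ g • d = d then 1 else 0) = Nat.card (D G a b) by
      rw [← card_D_eq hZ hab (Finset.ne_of_mem_erase hd).symm, Nat.card_eq_fintype_card,
        ← Finset.card_filter, Fintype.card_subtype]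
      exact congrArg Finset.card (Finset.ext fun g => by simp [mem_D])]
  simp only [Finset.sum_const, smul_eq_mul, Finset.card_erase_of_mem (Finset.mem_univ _), Finset.card_univ]
  rw [← card_stab hZ a, ← card_D_mul hZ hab]
  ring

/-- The number of non-identity elements with exactly `i` fixed points. -/
noncomputable def nfix (G : Type*) [Group G] [Fintype G] (Ω : Type*) [MulAction G Ω] [Fintype Ω] (i : ℕ) : ℕ :=
  open Classical in (Finset.univ.filter fun g : G => g ≠ 1 ∧ fx (Ω := Ω) g = i).card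

theorem nfix_counts {a b : Ω} (hab : a ≠ b) {h e : ℕ} (hh : Fintype.card Ω = h + 1)
    (he : Nat.card (D G a b) = e) :
    Nat.card G = e * h * (h + 1) ∧ nfix G Ω 1 + 1 = h * h ∧
      2 * nfix G Ω 2 + h * (h + 1) = e * h * (h + 1) ∧
      2 * nfix G Ω 0 + h * h = e * h * (h + 1) + h := by
  classical
  have hG : Nat.card G = e * h * (h + 1) := by
    rw [← card_stab hZ a, ← card_D_mul hZ hab, hh, he, Nat.add_sub_cancel]
  have hsplit : ∀ F : ℕ → ℕ, ∑ g : G, F (fx (Ω := Ω) g) = F (h + 1) + nfix G Ω 0 * F 0 +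
      nfix G Ω 1 * F 1 + nfix G Ω 2 * F 2 := by
    intro F
    have e1 : ∀ g : G, F (fx (Ω := Ω) g) = (if g = 1 then F (h + 1) else 0) +
        (if g ≠ 1 ∧ fx (Ω := Ω) g = 0 then F 0 else 0) + (if g ≠ 1 ∧ fx (Ω := Ω) g = 1 then F 1 else 0) +
        (if g ≠ 1 ∧ fx (Ω := Ω) g = 2 then F 2 else 0) := by
      intro g
      by_cases hg : g = 1
      · subst hg; simp [fx_one, hh]
      · have := fx_le_two hZ hg
        interval_cases hfx : fx (Ω := Ω) g <;> simp [hg]
    rw [Finset.sum_congr rfl fun g _ => e1 g]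
    simp only [Finset.sum_add_distrib, nfix, Finset.sum_ite_eq', Finset.mem_univ, if_true,
      ← Finset.sum_filter, Finset.sum_const, smul_eq_mul]
  have h1 := hsplit id
  have h2 := hsplit fun i => i ^ 2
  have h0 := hsplit fun _ => 1
  simp only [id, sum_fx hZ] at h1
  rw [sum_fx_sq hZ] at h2
  simp only [Finset.sum_const, Finset.card_univ, smul_eq_mul, mul_one, ← Nat.card_eq_fintype_card] at h0
  rw [hG] at h0 h1 h2
  refine ⟨hG, ?_, ?_, ?_⟩ <;> nlinarith

end fixed

theorem one_lt_card_D {a b : Ω} (hab : a ≠ b) : 1 < Nat.card (D G a b) := by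
  obtain ⟨g, hg, hg1⟩ := exists_fixer hZ hab
  rw [Finite.one_lt_card_iff_nontrivial]
  exact ⟨⟨g, hg⟩, 1, fun h => hg1 (congrArg Subtype.val h)⟩

theorem three_le_card_D {a b : Ω} (hab : a ≠ b) (hodd : Odd (Nat.card (D G a b))) :
    3 ≤ Nat.card (D G a b) := by
  have := one_lt_card_D hZ hab
  obtain ⟨k, hk⟩ := hodd
  omega

/-- The kernel of a point stabilizer. -/
theorem exists_kernel (a : Ω) : ∃ H : Subgroup G, H ≤ stabilizer G a ∧
    Nat.card H + 1 = Fintype.card Ω ∧ ∀ u ∈ H, u ≠ 1 → ∀ c : Ω, u • c = c → c = a := by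
  classical
  obtain ⟨b, hab⟩ := exists_ne' hZ a
  set E := (D G a b).subgroupOf (stabilizer G a) with hE
  obtain ⟨x₀, hx₀, hx₁⟩ := exists_fixer hZ hab
  have hfc : Cfsg.IsFrobeniusComplement E := by
    refine ⟨?_, ?_, fun g hg => ?_⟩
    · intro h
      have : (⟨x₀, hx₀.1⟩ : stabilizer G a) ∈ E := hx₀
      rw [h, Subgroup.mem_bot] at this
      exact hx₁ (congrArg Subtype.val this)
    · intro h
      obtain ⟨c, hc⟩ : ∃ c : Ω, c ≠ a ∧ c ≠ b := by
        by_contra hcon
        push Not at hcon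
        have : (Finset.univ : Finset Ω) ⊆ {a, b} := fun c _ => by
          by_cases hc : c = a
          · simp [hc]
          · simp [hcon c hc]
        have := (Finset.card_le_card this).trans Finset.card_le_two
        have := three_le hZ
        rw [Finset.card_univ] at *
        omega
      obtain ⟨g, hga, hgb⟩ := exists_move hZ hab (Ne.symm hc.1)
      have : (⟨g, hga⟩ : stabilizer G a) ∈ E := by rw [h]; exact Subgroup.mem_top _
      exact hc.2 (hgb.symm.trans this.2)
    · rw [eq_bot_iff]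
      intro x hx
      rw [Subgroup.mem_bot]
      refine Subtype.ext (three hZ hab (c := (g : G) • b) ?_ ?_ x.2 hx.1.2 ?_)
      · exact fun h => hg ⟨g.2, h.symm⟩
      · intro h
        exact hab (MulAction.injective (g : G) ((MulAction.mem_stabilizer_iff.mp g.2).trans h))
      · have h := Subgroup.mem_pointwise_smul_iff_inv_smul_mem.mp hx.2
        have h' : (((MulAut.conj g)⁻¹ • x : stabilizer G a) : G) • b = b := h.2
        simp only [← map_inv, MulAut.smul_def, MulAut.conj_apply, inv_inv, Subgroup.coe_mul,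
          Subgroup.coe_inv] at h'
        rw [mul_smul, mul_smul, inv_smul_eq_iff] at h'
        exact h'
  obtain ⟨K, hKn, hKeq, hKc⟩ := Cfsg.Lib.Solv.exists_frobeniusKernel hfc
  refine ⟨K.map (stabilizer G a).subtype, Subgroup.map_subtype_le K, ?_, ?_⟩
  · rw [Subgroup.card_map_of_injective (Subgroup.subtype_injective _)]
    have h1 : Nat.card K * Nat.card E = Nat.card (stabilizer G a) := hKc.card_mul
    rw [← card_D_mul hZ hab, show Nat.card E = Nat.card (D G a b) from
      Nat.card_congr (Subgroup.subgroupOfEquivOfLe inf_le_left).toEquiv, mul_comm] at h1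
    have := Nat.eq_of_mul_eq_mul_left (Nat.card_pos (α := D G a b)) h1
    have := three_le hZ
    omega
  · rintro _ ⟨u, hu, rfl⟩ hu1 c hc
    by_contra hca
    obtain ⟨g, hga, hgb⟩ := exists_move hZ hab (Ne.symm hca)
    have hu' : u ∈ (K : Set (stabilizer G a)) := hu
    rw [hKeq, Cfsg.Lib.Solv.mem_frobeniusKernel] at hu'
    refine hu'.resolve_left (fun h => hu1 (by rw [h]; rfl)) ⟨g, hga⟩ ?_
    rw [Subgroup.mem_pointwise_smul_iff_inv_smul_mem, ← map_inv, MulAut.smul_def, MulAut.conj_apply]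
    refine mem_D.mpr ⟨?_, ?_⟩
    · exact MulAction.mem_stabilizer_iff.mp ((⟨g, hga⟩ : stabilizer G a)⁻¹ * u * (⟨g, hga⟩ : stabilizer G a)⁻¹⁻¹).2
    · show ((g⁻¹ * (u : G) * g⁻¹⁻¹ : G)) • b = b
      rw [inv_inv, mul_smul, mul_smul, hgb, inv_smul_eq_iff, hgb]
      exact hc

section kernel

variable {a : Ω} {H : Subgroup G} (hHa : H ≤ stabilizer G a)
  (hHcard : Nat.card H + 1 = Fintype.card Ω) (hHfix : ∀ u ∈ H, u ≠ 1 → ∀ c : Ω, u • c = c → c = a)

include hHa hHcard hHfix

theorem normalizer_kernel : Subgroup.normalizer (H : Set G) = stabilizer G a :=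
  (Cfsg.Agent.S0878.result hZ a H hHa hHcard hHfix).2

theorem kernel_ne_bot : H ≠ ⊥ := by
  intro h
  rw [h, Subgroup.card_bot] at hHcard
  have := three_le hZ
  omega

theorem mem_kernel {u : G} (hu : u • a = a) (hfix : ∀ c : Ω, u • c = c → c = a) : u ∈ H := by
  classical
  obtain ⟨b, hab⟩ := exists_ne' hZ a
  -- `H` and the two point stabilizer give all of the stabilizer
  haveI : Fintype G := Fintype.ofFinite G
  obtain ⟨-, h1, -, -⟩ := nfix_counts hZ hab (h := Nat.card H) hHcard.symm rfl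
  set T := Finset.univ.filter fun g : G => g ≠ 1 ∧ fx (Ω := Ω) g = 1 with hT
  have hfx : ∀ (g : G) (c : Ω), g • c = c → (∀ d : Ω, g • d = d → d = c) → fx (Ω := Ω) g = 1 := by
    intro g c hc hd
    rw [fx, Finset.card_eq_one]
    exact ⟨c, Finset.ext fun d => by
      simp only [Finset.mem_filter, Finset.mem_univ, true_and, Finset.mem_singleton]
      exact ⟨hd d, fun e => e ▸ hc⟩⟩
  by_contra huH
  have hu1 : u ≠ 1 := fun h => huH (h ▸ H.one_mem)
  have := pretransitive hZ
  choose m hm using fun c : Ω => MulAction.exists_smul_eq G a c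
  let U := (Finset.univ ×ˢ insert u ((Finset.univ.filter fun g : G => g ∈ H).erase 1) :
    Finset (Ω × G)).image fun q => m q.1 * q.2 * (m q.1)⁻¹
  have hq : ∀ q ∈ (Finset.univ ×ˢ insert u ((Finset.univ.filter fun g : G => g ∈ H).erase 1) :
      Finset (Ω × G)), q.2 ≠ 1 ∧ q.2 • a = a ∧ ∀ d : Ω, q.2 • d = d → d = a := by
    intro q hq
    rw [Finset.mem_product, Finset.mem_insert] at hq
    rcases hq.2 with h | h
    · rw [h]; exact ⟨hu1, hu, hfix⟩
    · rw [Finset.mem_erase, Finset.mem_filter] at h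
      exact ⟨h.1, MulAction.mem_stabilizer_iff.mp (hHa h.2.2), hHfix _ h.2.2 h.1⟩
  have hUT : U ⊆ T := by
    intro x hx
    obtain ⟨q, hq', rfl⟩ := Finset.mem_image.mp hx
    obtain ⟨h1, h2, h3⟩ := hq q hq'
    refine Finset.mem_filter.mpr ⟨Finset.mem_univ _, by simpa using h1, hfx _ (m q.1 • a) ?_ fun d hd => ?_⟩
    · rw [mul_smul, inv_smul_smul, mul_smul, h2]
    · rw [mul_smul, mul_smul, smul_eq_iff_eq_inv_smul] at hd
      rw [← h3 _ hd, smul_inv_smul]
  have hinj : U.card = Fintype.card Ω * (Nat.card H - 1 + 1) := by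
    rw [Finset.card_image_of_injOn, Finset.card_product, Finset.card_univ, Finset.card_insert_of_notMem,
      Finset.card_erase_of_mem (by simp), ← Fintype.card_subtype, ← Nat.card_eq_fintype_card]
    · simp
    · simp [huH]
    · intro q hq' q' hq'' e
      obtain ⟨h1, h2, h3⟩ := hq q hq'
      obtain ⟨h1', h2', h3'⟩ := hq q' hq''
      have e' : m q.1 * q.2 * (m q.1)⁻¹ = m q'.1 * q'.2 * (m q'.1)⁻¹ := e
      have hc : q.1 = q'.1 := by
        have hx : (m q.1 * q.2 * (m q.1)⁻¹) • q.1 = q.1 := by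
          rw [mul_smul, inv_smul_eq_iff.mpr (hm q.1).symm, mul_smul, h2, hm]
        rw [e', mul_smul, mul_smul, smul_eq_iff_eq_inv_smul] at hx
        have := h3' _ hx
        rw [inv_smul_eq_iff, hm] at this
        exact this
      rw [hc] at e'
      exact Prod.ext hc (mul_left_cancel (mul_right_cancel e'))
  have hle := Finset.card_le_card hUT
  rw [hinj, ← hHcard] at hle
  have h2 : nfix G Ω 1 = T.card := rfl
  have : 0 < Nat.card H := Nat.card_pos
  rw [show Nat.card H - 1 + 1 = Nat.card H by omega] at hle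
  nlinarith

theorem centralizer_kernel_le {u : G} (hu : u ∈ H) (hu1 : u ≠ 1) :
    Subgroup.centralizer ({u} : Set G) ≤ H := by
  intro x hx
  have hxu : x * u = u * x := Subgroup.mem_centralizer_singleton_iff.mp hx
  by_cases hx1 : x = 1
  · rw [hx1]; exact H.one_mem
  have hxa : x • a = a := hHfix u hu hu1 _ (by
    rw [← mul_smul, ← hxu, mul_smul, MulAction.mem_stabilizer_iff.mp (hHa hu)])
  refine mem_kernel hZ hHa hHcard hHfix hxa fun c hc => ?_
  by_contra hca
  have hua := MulAction.mem_stabilizer_iff.mp (hHa hu)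
  have huc : u • c ≠ c := fun h => hca (hHfix u hu hu1 c h)
  have huca : u • c ≠ a := fun h => hca (MulAction.injective u (h.trans hua.symm))
  exact hx1 (three hZ (Ne.symm hca) huc.symm huca.symm hxa hc
    (by rw [← mul_smul, hxu, mul_smul, hc]))

end kernel

end Cfsg.Lib.Zassenhaus
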