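import Cfsg.Agent.Lib.Zassenhaus.Swap
import Cfsg.Agent.Lib.Solv.MinimalNonNilpotent
import Cfsg.Agent.Lib.Transfer.PGroupNormal

/-!
# Zassenhaus groups: involutions
-/

set_option autoImplicit false
set_option linter.style.haveILetI false
set_option linter.unusedSectionVars false

namespace Cfsg.Lib.Zassenhaus

open MulAction

variable {G Ω : Type*} [Group G] [Finite G] [MulAction G Ω] [Fintype Ω]
  (hZ : Cfsg.IsZassenhausGroup G Ω) {a b : Ω} (hab : a ≠ b)
  (hodd : Odd (Nat.card (D G a b)))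

include hZ hab hodd

theorem odd_D {c d : Ω} (hcd : c ≠ d) : Odd (Nat.card (D G c d)) := card_D_eq hZ hab hcd ▸ hodd

theorem invol_fixed_unique {x : G} (hx : orderOf x = 2) {c d : Ω} (hc : x • c = c) (hd : x • d = d) :
    c = d := by
  by_contra hcd
  have h := (D G c d).orderOf_dvd_natCard (show x ∈ D G c d from ⟨hc, hd⟩)
  rw [hx] at h
  exact Nat.not_even_iff_odd.mpr (odd_D hZ hab hodd hcd) (even_iff_two_dvd.mpr h)

theorem invol_fx {x : G} (hx : orderOf x = 2) {h : ℕ} (hh : Fintype.card Ω = h + 1) :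
    fx (Ω := Ω) x = if Even h then 1 else 0 := by
  classical
  have hle : fx (Ω := Ω) x ≤ 1 := Finset.card_le_one.mpr fun c hc d hd =>
    invol_fixed_unique hZ hab hodd hx (Finset.mem_filter.mp hc).2 (Finset.mem_filter.mp hd).2
  have := Fact.mk Nat.prime_two
  have hP : IsPGroup 2 (Subgroup.zpowers x) := IsPGroup.of_card (n := 1) (by
    rw [Nat.card_zpowers, hx, pow_one])
  have hmod := hP.card_modEq_card_fixedPoints Ω
  have hfix : Nat.card (MulAction.fixedPoints (Subgroup.zpowers x) Ω) = fx (Ω := Ω) x := by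
    rw [fx, ← Fintype.card_subtype, ← Nat.card_eq_fintype_card]
    refine Nat.card_congr (Equiv.subtypeEquivRight fun c => ⟨fun h => h ⟨x, Subgroup.mem_zpowers x⟩, ?_⟩)
    rintro hc ⟨g, hg⟩
    obtain ⟨i, rfl⟩ := Subgroup.mem_zpowers_iff.mp hg
    exact MulAction.mem_stabilizer_iff.mp (zpow_mem (show x ∈ stabilizer G c from hc) i)
  rw [hfix, Nat.card_eq_fintype_card, hh, Nat.ModEq] at hmod
  split_ifs with he
  · rw [Nat.even_iff] at he; omega
  · rw [Nat.even_iff] at he; omega

variable [IsSimpleGroup G]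

theorem card_invol_moving [Fintype G] {c d : Ω} (hcd : c ≠ d) [DecidableEq Ω] :
    (Finset.univ.filter fun x : G => orderOf x = 2 ∧ x • c = d).card = Nat.card (D G a b) := by
  classical
  have hodd' := odd_D hZ hab hodd hcd
  obtain ⟨t, ht, htc, htd⟩ := exists_swap_invol hZ hcd hodd'
  rw [← card_D_eq hZ hab hcd, ← Fintype.card_subtype, ← Nat.card_eq_fintype_card]
  have ht2 : t * t = 1 := by rw [← pow_two, ← ht, pow_orderOf_eq_one]
  refine Nat.card_congr
    { toFun := fun x => ⟨t * x.1, ?_⟩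
      invFun := fun z => ⟨t * z.1, ?_, ?_⟩
      left_inv := fun x => Subtype.ext (by simp [← mul_assoc, ht2])
      right_inv := fun z => Subtype.ext (by simp [← mul_assoc, ht2]) }
  · obtain ⟨x, hx2, hxc⟩ := x
    have h2 : x * x = 1 := by rw [← pow_two, ← hx2, pow_orderOf_eq_one]
    refine swap_mul_swap htc htd hxc ?_
    show x • d = c
    rw [← hxc, ← mul_smul, h2, one_smul]
  · exact swap_orderOf hZ hcd hodd' (by rw [mul_smul, z.2.1, htc]) (by rw [mul_smul, z.2.2, htd])
  · rw [mul_smul, z.2.1, htc]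

theorem invol_conj {x y : G} (hx : orderOf x = 2) (hy : orderOf y = 2) : IsConj x y := by
  obtain ⟨t, ht, hta, htb⟩ := exists_swap_invol hZ hab hodd
  suffices h : ∀ x : G, orderOf x = 2 → IsConj t x from ((h x hx).symm).trans (h y hy)
  intro x hx
  obtain ⟨c, hc⟩ : ∃ c : Ω, x • c ≠ c := by
    by_contra h
    push Not at h
    rw [eq_one hZ h, orderOf_one] at hx
    exact one_ne_zero (by omega : (1 : ℕ) = 0)
  obtain ⟨w, hwc, hwd⟩ := exists_move hZ (Ne.symm hc) hab
  have hxx : x * x = 1 := by rw [← pow_two, ← hx, pow_orderOf_eq_one]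
  set g := w * x * w⁻¹ with hg
  have hga : g • a = b := by rw [hg, mul_smul, inv_smul_eq_iff.mpr hwc.symm, mul_smul, hwd]
  have hgb : g • b = a := by
    rw [hg, mul_smul, inv_smul_eq_iff.mpr hwd.symm, mul_smul, ← mul_smul x x, hxx, one_smul, hwc]
  have hz := swap_mul_swap hta htb hga hgb
  obtain ⟨k, hk⟩ := hodd
  set v := (t * g) ^ (k + 1) with hv
  have hinv := (commutative_and_inverts hZ hab ⟨k, hk⟩ ht hta htb).2 v (pow_mem hz _)
  have ht2 : t * t = 1 := by rw [← pow_two, ← ht, pow_orderOf_eq_one]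
  have hvv : v * v = t * g := by
    rw [hv, ← pow_add, show k + 1 + (k + 1) = Nat.card (D G a b) + 1 by omega, pow_succ,
      orderOf_dvd_iff_pow_eq_one.mp ((D G a b).orderOf_dvd_natCard hz), one_mul]
  refine IsConj.trans (isConj_iff.mpr ⟨v⁻¹, ?_⟩) (isConj_iff.mpr ⟨w⁻¹, by rw [hg]; group⟩ : IsConj g x)
  calc v⁻¹ * t * v⁻¹⁻¹ = (t * v * t⁻¹) * t * v := by rw [hinv, inv_inv]
    _ = t * (v * v) := by group
    _ = g := by rw [hvv, ← mul_assoc, ht2, one_mul]

theorem card_invol {h : ℕ} (hh : Fintype.card Ω = h + 1) :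
    Nat.card {x : G // orderOf x = 2} =
      if Even h then Nat.card (D G a b) * (h + 1) else Nat.card (D G a b) * h := by
  classical
  haveI : Fintype G := Fintype.ofFinite G
  set T := Finset.univ.filter fun x : G => orderOf x = 2 with hT
  have hcard : Nat.card {x : G // orderOf x = 2} = T.card := by
    rw [Nat.card_eq_fintype_card, Fintype.card_subtype]
  have e1 : ∑ x ∈ T, (Finset.univ.filter fun c : Ω => x • c ≠ c).card =
      (h + 1) * h * Nat.card (D G a b) := by
    have : ∀ x : G, (Finset.univ.filter fun c : Ω => x • c ≠ c).card =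
        ∑ c : Ω, ∑ d ∈ Finset.univ.erase c, if x • c = d then 1 else 0 := by
      intro x
      rw [Finset.card_filter]
      refine Finset.sum_congr rfl fun c _ => ?_
      by_cases hxc : x • c = c
      · rw [if_neg (not_not.mpr hxc), Finset.sum_eq_zero]
        intro d hd
        exact if_neg fun e => Finset.ne_of_mem_erase hd (e.symm.trans hxc)
      · rw [if_pos hxc, Finset.sum_ite_eq, if_pos (Finset.mem_erase.mpr ⟨hxc, Finset.mem_univ _⟩)]
    rw [Finset.sum_congr rfl fun x _ => this x, Finset.sum_comm,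
      Finset.sum_congr rfl fun c _ => Finset.sum_comm]
    rw [Finset.sum_congr rfl fun c _ => Finset.sum_congr rfl fun d hd => show
      (∑ x ∈ T, if x • c = d then 1 else 0) = Nat.card (D G a b) by
        rw [← Finset.card_filter, hT, Finset.filter_filter]
        exact card_invol_moving hZ hab hodd (Finset.ne_of_mem_erase hd).symm]
    simp only [Finset.sum_const, smul_eq_mul, Finset.card_erase_of_mem (Finset.mem_univ _),
      Finset.card_univ, hh, Nat.add_sub_cancel]
    ring
  have e2 : ∀ x ∈ T, (Finset.univ.filter fun c : Ω => x • c ≠ c).card =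
      if Even h then h else h + 1 := by
    intro x hx
    have h1 := invol_fx hZ hab hodd (Finset.mem_filter.mp hx).2 hh
    have h2 : (Finset.univ.filter fun c : Ω => x • c = c).card +
        (Finset.univ.filter fun c : Ω => x • c ≠ c).card = h + 1 := by
      rw [Finset.card_filter_add_card_filter_not, Finset.card_univ, hh]
    rw [fx] at h1
    split_ifs at h1 ⊢ <;> omega
  rw [Finset.sum_congr rfl e2, Finset.sum_const, smul_eq_mul] at e1
  rw [hcard]
  have h0 : 0 < h := by have := three_le hZ; omega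
  split_ifs at e1 ⊢ with he
  · exact Nat.eq_of_mul_eq_mul_right h0 (e1.trans (by ring))
  · exact Nat.eq_of_mul_eq_mul_right (by omega : 0 < h + 1) (e1.trans (by ring))

omit [IsSimpleGroup G] in
theorem invol_mem_kernel {H : Subgroup G} (hHa : H ≤ stabilizer G a)
    (hHc : Nat.card H + 1 = Fintype.card Ω) (hHfix : ∀ u ∈ H, u ≠ 1 → ∀ c : Ω, u • c = c → c = a)
    {x : G} (hx : orderOf x = 2) (hxa : x • a = a) : x ∈ H :=
  mem_kernel hZ hHa hHc hHfix hxa fun _ hc => (invol_fixed_unique hZ hab hodd hx hxa hc).symm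

theorem invol_kernel_commute {H : Subgroup G} (hHa : H ≤ stabilizer G a)
    (hHc : Nat.card H + 1 = Fintype.card Ω) (hHfix : ∀ u ∈ H, u ≠ 1 → ∀ c : Ω, u • c = c → c = a)
    {x : G} (hx : orderOf x = 2) (hxH : x ∈ H) {y : G} (hy : y ∈ H) : x * y = y * x := by
  classical
  have := Fact.mk Nat.prime_two
  have hN := normalizer_kernel hZ hHa hHc hHfix
  set S := stabilizer G a with hS
  have : (H.subgroupOf S).Normal := (Subgroup.normal_subgroupOf_iff_le_normalizer hHa).mpr hN.ge
  have hKne : H.subgroupOf S ≠ ⊤ := by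
    intro h
    obtain ⟨g, hg, hg1⟩ := exists_fixer hZ hab
    have hgH : (⟨g, hg.1⟩ : S) ∈ H.subgroupOf S := h ▸ Subgroup.mem_top _
    exact hab (hHfix g hgH hg1 b hg.2).symm
  obtain ⟨φ, r, hφ⟩ := Cfsg.Agent.S1526.exists_fpf (H.subgroupOf S) hKne (fun k hk hk1 x hx => by
    refine centralizer_kernel_le hZ hHa hHc hHfix hk (fun h => hk1 (Subtype.ext h)) ?_
    exact Subgroup.mem_centralizer_singleton_iff.mpr
      (congrArg Subtype.val (Subgroup.mem_centralizer_singleton_iff.mp hx)))
  have : Group.IsNilpotent (H.subgroupOf S) := Cfsg.Lib.Solv.ThompsonKernel.fpf_isNilpotent hφ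
  have hnil : Group.IsNilpotent H := Group.nilpotent_of_mulEquiv (Subgroup.subgroupOfEquivOfLe hHa)
  -- a central involution
  have h2 : 2 ∣ Nat.card H := by
    have := H.orderOf_dvd_natCard hxH
    rwa [hx] at this
  obtain ⟨P⟩ := (inferInstance : Nonempty (Sylow 2 H))
  have hPne : (P : Subgroup H) ≠ ⊥ := P.ne_bot_of_dvd_card h2
  have : (P : Subgroup H).Normal := Cfsg.Lib.Solv.normal_sylow_of_nilpotent P
  have hnt : Nontrivial P := (Subgroup.nontrivial_iff_ne_bot _).mpr hPne
  have := P.2.center_nontrivial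
  obtain ⟨n, hn, hcard⟩ := (P.2.to_subgroup (Subgroup.center P)).nontrivial_iff_card.1 this
  obtain ⟨z, hz⟩ := exists_prime_orderOf_dvd_card' (G := Subgroup.center P) 2 (hcard ▸ dvd_pow_self 2 hn.ne')
  set z₀ : H := ((z : P) : H) with hz₀
  have hz₀2 : orderOf z₀ = 2 := by rw [hz₀, Subgroup.orderOf_coe, Subgroup.orderOf_coe, hz]
  have hzc : z₀ ∈ Subgroup.center H := by
    rw [Subgroup.mem_center_iff]
    intro g
    have : g ∈ Subgroup.centralizer ((Subgroup.zpowers z₀ : Subgroup H) : Set H) := by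
      refine Cfsg.Lib.Transfer.mem_centralizer_of_prime_parts fun r hr w _ hw => ?_
      obtain ⟨j, hj⟩ := hw
      rw [Subgroup.mem_centralizer_iff]
      intro v hv
      obtain ⟨i, rfl⟩ := Subgroup.mem_zpowers_iff.mp hv
      refine (Commute.zpow_left ?_ i).eq
      by_cases hr2 : r = 2
      · subst hr2
        have hwP : w ∈ (P : Subgroup H) := by
          have hp : IsPGroup 2 (Subgroup.zpowers w) := IsPGroup.of_card (n := j) (by rw [Nat.card_zpowers, hj])
          obtain ⟨Q, hQ⟩ := hp.exists_le_sylow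
          have := Sylow.unique_of_normal P inferInstance
          rw [Subsingleton.elim P Q]
          exact hQ (Subgroup.mem_zpowers w)
        exact (congrArg Subtype.val (Subgroup.mem_center_iff.mp z.2 ⟨w, hwP⟩)).symm
      · exact (Cfsg.Lib.Solv.commute_of_nilpotent hr Nat.prime_two hr2 hj (hz₀2.trans (pow_one 2).symm)).symm
    exact (Subgroup.mem_centralizer_iff.mp this z₀ (Subgroup.mem_zpowers z₀)).symm
  have hzG : orderOf (z₀ : G) = 2 := by rw [Subgroup.orderOf_coe]; exact hz₀2
  obtain ⟨g, rfl⟩ := isConj_iff.mp (invol_conj hZ hab hodd hzG hx)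
  have hgS : g • a = a := hHfix _ hxH (fun h => by rw [h, orderOf_one] at hx; omega) _ (by
    rw [mul_smul, inv_smul_smul, mul_smul, MulAction.mem_stabilizer_iff.mp (hHa z₀.2)])
  have hgN : g ∈ Subgroup.normalizer (H : Set G) := hN ▸ hgS
  have hy' : g⁻¹ * y * g ∈ H := (Subgroup.mem_normalizer_iff''.mp hgN y).mp hy
  have h1 := congrArg Subtype.val (Subgroup.mem_center_iff.mp hzc ⟨_, hy'⟩)
  simp only [Subgroup.coe_mul] at h1
  calc g * (z₀ : G) * g⁻¹ * y = g * ((z₀ : G) * (g⁻¹ * y * g)) * g⁻¹ := by group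
    _ = g * ((g⁻¹ * y * g) * z₀) * g⁻¹ := by rw [← h1]
    _ = y * (g * z₀ * g⁻¹) := by group

end Cfsg.Lib.Zassenhaus
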