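import Cfsg.Agent.Lib.Zassenhaus.Basic

/-!
# Normal subgroups of Zassenhaus groups
-/

set_option autoImplicit false
set_option linter.unusedSectionVars false

namespace Cfsg.Lib.Zassenhaus

open MulAction

theorem finite_of_faithful (G Ω : Type*) [Group G] [MulAction G Ω] [Finite Ω] [FaithfulSMul G Ω] : Finite G :=
  Finite.of_injective (fun g : G => MulAction.toPerm (α := G) (β := Ω) g) MulAction.toPerm_injective

/-- a nontrivial normal subgroup of a 2-transitive faithful group is transitive -/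
theorem normal_transitive {G Ω : Type*} [Group G] [MulAction G Ω] [FaithfulSMul G Ω]
    (h2 : IsMultiplyPretransitive G Ω 2) (N : Subgroup G) [hNn : N.Normal] (hN : N ≠ ⊥) (y z : Ω) :
    ∃ n ∈ N, n • y = z := by
  rcases eq_or_ne y z with rfl | hyz
  · exact ⟨1, N.one_mem, one_smul G y⟩
  obtain ⟨⟨n, hn⟩, hn1⟩ := Subgroup.ne_bot_iff_exists_ne_one.1 hN
  obtain ⟨x, hx⟩ : ∃ x : Ω, n • x ≠ x := by
    by_contra h
    push Not at h
    exact hn1 (Subtype.ext (FaithfulSMul.eq_of_smul_eq_smul (α := Ω) fun x => by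
      show n • x = (1 : G) • x
      rw [h, one_smul]))
  obtain ⟨g, hg1, hg2⟩ := MulAction.is_two_pretransitive_iff.1 h2 hx.symm hyz
  exact ⟨g * n * g⁻¹, hNn.conj_mem n hn g, by rw [← hg1, mul_smul, inv_smul_smul, mul_smul, hg2]⟩

section

variable {G Ω : Type*} [Group G] [Finite G] [MulAction G Ω] [Fintype Ω]
  (hZ : Cfsg.IsZassenhausGroup G Ω)

include hZ

section kernel

variable {a : Ω} {U : Subgroup G} (hUa : U ≤ stabilizer G a)
  (hUcard : Nat.card U + 1 = Fintype.card Ω) (hUfix : ∀ u ∈ U, u ≠ 1 → ∀ c : Ω, u • c = c → c = a)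

include hUa hUcard hUfix

theorem kernel_conj_mem {g u : G} (hg : g • a = a) (hu : u ∈ U) : g * u * g⁻¹ ∈ U := by
  have h : g ∈ Subgroup.normalizer (U : Set G) := by
    rw [normalizer_kernel hZ hUa hUcard hUfix]; exact hg
  exact (Subgroup.mem_normalizer_iff.1 h u).1 hu

theorem kernel_inf {c : Ω} (hc : c ≠ a) : U ⊓ stabilizer G c = ⊥ := by
  rw [eq_bot_iff]
  intro u hu
  by_contra h1
  exact hc (hUfix u hu.1 (fun h => h1 (Subgroup.mem_bot.2 h)) c hu.2)

theorem kernel_move {c d : Ω} (hc : c ≠ a) (hd : d ≠ a) : ∃ u ∈ U, u • c = d := by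
  classical
  have := Fintype.ofFinite U
  let f : U → {x : Ω // x ≠ a} := fun u => ⟨(u : G) • c, fun h =>
    hc (smul_left_cancel (u : G) (h.trans (hUa u.2).symm))⟩
  have hf : Function.Injective f := by
    intro u v h
    have h' : (u : G) • c = (v : G) • c := congrArg Subtype.val h
    have hm : (v : G)⁻¹ * u ∈ U ⊓ stabilizer G c :=
      ⟨U.mul_mem (U.inv_mem v.2) u.2, by
        show ((v : G)⁻¹ * u) • c = c
        rw [mul_smul, h', inv_smul_smul]⟩
    rw [kernel_inf hZ hUa hUcard hUfix hc, Subgroup.mem_bot, inv_mul_eq_one] at hm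
    exact Subtype.ext hm.symm
  have hb : Function.Bijective f := (Fintype.bijective_iff_injective_and_card f).2 ⟨hf, by
    rw [Fintype.card_subtype_compl, Fintype.card_subtype_eq, ← Nat.card_eq_fintype_card (α := U)]
    omega⟩
  obtain ⟨u, hu⟩ := hb.2 ⟨d, hd⟩
  exact ⟨u, u.2, congrArg Subtype.val hu⟩

/-- a normal subgroup containing an element with two fixed points contains the kernels -/
theorem kernel_le_normal (N : Subgroup G) [hNn : N.Normal] {n : G} (hn : n ∈ N) (hn1 : n ≠ 1)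
    (hna : n • a = a) {c : Ω} (hc : c ≠ a) (hnc : n • c = c) : U ≤ N := by
  classical
  let f : U → U := fun u => ⟨(u : G) * (n * (u : G)⁻¹ * n⁻¹),
    U.mul_mem u.2 (kernel_conj_mem hZ hUa hUcard hUfix hna (U.inv_mem u.2))⟩
  have hf : Function.Injective f := by
    intro u v h
    have h' : (u : G) * (n * (u : G)⁻¹ * n⁻¹) = (v : G) * (n * (v : G)⁻¹ * n⁻¹) := congrArg Subtype.val h
    by_contra huv
    have hw : (v : G)⁻¹ * u ≠ 1 := fun e => huv (Subtype.ext (inv_mul_eq_one.1 e).symm)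
    have hcomm : ((v : G)⁻¹ * u) * n = n * ((v : G)⁻¹ * u) := by
      calc ((v : G)⁻¹ * u) * n = (v : G)⁻¹ * ((u : G) * (n * (u : G)⁻¹ * n⁻¹)) * (n * u) := by group
        _ = (v : G)⁻¹ * ((v : G) * (n * (v : G)⁻¹ * n⁻¹)) * (n * u) := by rw [h']
        _ = _ := by group
    have hmem := centralizer_kernel_le hZ hUa hUcard hUfix (U.mul_mem (U.inv_mem v.2) u.2) hw
      (Subgroup.mem_centralizer_singleton_iff.2 hcomm.symm)
    exact hc (hUfix n hmem hn1 c hnc)
  intro u hu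
  obtain ⟨v, hv⟩ := (Finite.injective_iff_surjective.1 hf) ⟨u, hu⟩
  have h' : (v : G) * (n * (v : G)⁻¹ * n⁻¹) = u := congrArg Subtype.val hv
  rw [← h', show (v : G) * (n * (v : G)⁻¹ * n⁻¹) = ((v : G) * n * (v : G)⁻¹) * n⁻¹ by group]
  exact N.mul_mem (hNn.conj_mem n hn v) (N.inv_mem hn)

end kernel

variable (N : Subgroup G) [hNn : N.Normal] (hN : N ≠ ⊥)

include hN

theorem normal_move (y z : Ω) : ∃ n ∈ N, n • y = z :=
  haveI := hZ.1
  normal_transitive hZ.2.1 N hN y z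

/-- a nontrivial normal subgroup contains an element fixing two given points -/
theorem normal_fixer {a b : Ω} (hab : a ≠ b) : ∃ n ∈ N, n ≠ 1 ∧ n • a = a ∧ n • b = b := by
  classical
  have := pretransitive hZ
  have hNt : IsPretransitive N Ω := ⟨fun y z => by
    obtain ⟨n, hn, h⟩ := normal_move hZ N hN y z
    exact ⟨⟨n, hn⟩, h⟩⟩
  suffices hex : ∃ n ∈ N, n ≠ 1 ∧ ∃ c d : Ω, c ≠ d ∧ n • c = c ∧ n • d = d by
    obtain ⟨n, hn, hn1, c, d, hcd, hnc, hnd⟩ := hex
    obtain ⟨g, hg1, hg2⟩ := exists_move hZ hcd hab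
    exact ⟨g * n * g⁻¹, hNn.conj_mem n hn g, by simpa using hn1,
      by rw [← hg1, mul_smul, inv_smul_smul, mul_smul, hnc],
      by rw [← hg2, mul_smul, inv_smul_smul, mul_smul, hnd]⟩
  by_contra hcon
  push Not at hcon
  obtain ⟨e, he⟩ := hZ.2.2.2.2 N hNn hNt
  set H := stabilizer N e with hH
  have hfc : Cfsg.IsFrobeniusComplement H := by
    refine ⟨he, fun h => ?_, fun g hg => ?_⟩
    · obtain ⟨f, hf⟩ := exists_ne' hZ e
      obtain ⟨n, hn⟩ := hNt.exists_smul_eq e f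
      have : n ∈ H := h ▸ Subgroup.mem_top n
      exact hf (this.symm.trans hn)
    · rw [eq_bot_iff]
      intro x hx
      rw [Subgroup.mem_bot]
      by_contra hx1
      refine hcon (x : G) x.2 (fun h => hx1 (Subtype.ext h)) e (g • e) (fun h => hg h.symm) hx.1 ?_
      have h := Subgroup.mem_pointwise_smul_iff_inv_smul_mem.mp hx.2
      rw [← map_inv, MulAut.smul_def, MulAut.conj_apply, inv_inv, hH, mem_stabilizer_iff, mul_smul,
        mul_smul, inv_smul_eq_iff] at h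
      exact h
  obtain ⟨K, hKn, hKeq, hKc⟩ := Cfsg.Lib.Solv.exists_frobeniusKernel hfc
  have hKfree : ∀ k ∈ K, k ≠ 1 → ∀ c : Ω, (k : N) • c ≠ c := by
    intro k hk hk1 c hc
    obtain ⟨g, rfl⟩ := hNt.exists_smul_eq e c
    have hk' : k ∈ Cfsg.frobeniusKernel H := hKeq ▸ hk
    rw [Cfsg.Lib.Solv.mem_frobeniusKernel] at hk'
    refine hk'.resolve_left hk1 g ?_
    rw [Subgroup.mem_pointwise_smul_iff_inv_smul_mem, ← map_inv, MulAut.smul_def, MulAut.conj_apply,
      inv_inv, hH, mem_stabilizer_iff, mul_smul, mul_smul, hc, inv_smul_smul]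
  have hmap : (K.map N.subtype).Normal := by
    refine ⟨fun x hx g => ?_⟩
    obtain ⟨k, hk, rfl⟩ := hx
    refine ⟨⟨g * (k : G) * g⁻¹, hNn.conj_mem k k.2 g⟩, ?_, rfl⟩
    rw [hKeq, Cfsg.Lib.Solv.mem_frobeniusKernel]
    by_cases hk1 : k = 1
    · left; subst hk1; apply Subtype.ext; simp
    right
    intro m hm
    rw [Subgroup.mem_pointwise_smul_iff_inv_smul_mem, ← map_inv, MulAut.smul_def, MulAut.conj_apply,
      inv_inv, hH, mem_stabilizer_iff, mul_smul, mul_smul, inv_smul_eq_iff] at hm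
    refine hKfree k hk hk1 (g⁻¹ • m • e) ?_
    change (g * (k : G) * g⁻¹) • (m • e) = m • e at hm
    rw [mul_smul, mul_smul] at hm
    exact eq_inv_smul_iff.2 hm
  have hKcard : Nat.card K = Fintype.card Ω := by
    have h1 := hKc.card_mul
    have h2 := H.card_mul_index
    rw [hH, index_stabilizer_of_transitive, Nat.card_eq_fintype_card (α := Ω), ← hH] at h2
    rw [← h2, mul_comm (Nat.card H)] at h1
    exact Nat.eq_of_mul_eq_mul_right Nat.card_pos h1
  have hfree : ∀ (a₀ : Ω), stabilizer ↥(K.map N.subtype) a₀ = ⊥ := by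
    intro a₀
    rw [eq_bot_iff]
    rintro ⟨x, hx⟩ hfix
    obtain ⟨k, hk, rfl⟩ := hx
    rw [Subgroup.mem_bot]
    apply Subtype.ext
    by_contra h1
    exact hKfree k hk (fun h => h1 (by subst h; rfl)) a₀ hfix
  have htr : IsPretransitive ↥(K.map N.subtype) Ω := by
    refine ⟨fun y z => ?_⟩
    let f : ↥(K.map N.subtype) → Ω := fun x => x • y
    have hf : Function.Injective f := by
      intro u v h
      have h' : u • y = v • y := h
      have : v⁻¹ * u ∈ stabilizer ↥(K.map N.subtype) y := by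
        rw [mem_stabilizer_iff, mul_smul, h', inv_smul_smul]
      rw [hfree, Subgroup.mem_bot, inv_mul_eq_one] at this
      exact this.symm
    have := Fintype.ofFinite ↥(K.map N.subtype)
    have hb : Function.Bijective f := (Fintype.bijective_iff_injective_and_card f).2 ⟨hf, by
      rw [← Nat.card_eq_fintype_card, Subgroup.card_map_of_injective (Subgroup.subtype_injective _), hKcard]⟩
    exact hb.2 z
  obtain ⟨c, hc⟩ := hZ.2.2.2.2 _ hmap htr
  exact hc (hfree c)

theorem kernel_le {a : Ω} {U : Subgroup G} (hUa : U ≤ stabilizer G a)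
    (hUcard : Nat.card U + 1 = Fintype.card Ω) (hUfix : ∀ u ∈ U, u ≠ 1 → ∀ c : Ω, u • c = c → c = a) :
    U ≤ N := by
  obtain ⟨b, hab⟩ := exists_ne' hZ a
  obtain ⟨n, hn, hn1, hna, hnb⟩ := normal_fixer hZ N hN hab
  exact kernel_le_normal hZ hUa hUcard hUfix N hn hn1 hna hab.symm hnb

theorem normal_two_transitive : IsMultiplyPretransitive N Ω 2 := by
  rw [MulAction.is_two_pretransitive_iff]
  intro x y z w hxy hzw
  obtain ⟨U, hUa, hUc, hUf⟩ := exists_kernel hZ z
  obtain ⟨n, hn, hnx⟩ := normal_move hZ N hN x z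
  obtain ⟨u, hu, huy⟩ := kernel_move hZ hUa hUc hUf (c := n • y) (d := w)
    (fun h => hxy (smul_left_cancel n (hnx.trans h.symm))) hzw.symm
  refine ⟨⟨u * n, N.mul_mem (kernel_le hZ N hN hUa hUc hUf hu) hn⟩, ?_, ?_⟩
  · show (u * n) • x = z
    rw [mul_smul, hnx]; exact hUa hu
  · show (u * n) • y = w
    rw [mul_smul, huy]

theorem normal_zassenhaus : Cfsg.IsZassenhausGroup N Ω := by
  have hf := hZ.1
  have h2N := normal_two_transitive hZ N hN
  have hfN : FaithfulSMul N Ω := ⟨fun {x y} h => Subtype.ext (FaithfulSMul.eq_of_smul_eq_smul (α := Ω) h)⟩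
  obtain ⟨a, b, hab⟩ : ∃ a b : Ω, a ≠ b := by
    obtain ⟨g, -, a, b, hab, -⟩ := hZ.2.2.2.1
    exact ⟨a, b, hab⟩
  refine ⟨hfN, h2N, fun g x y z hxy hyz hxz hx hy hz => Subtype.ext (three hZ hxy hyz hxz hx hy hz), ?_, ?_⟩
  · obtain ⟨n, hn, hn1, hna, hnb⟩ := normal_fixer hZ N hN hab
    exact ⟨⟨n, hn⟩, fun h => hn1 (congrArg Subtype.val h), a, b, hab, hna, hnb⟩
  intro M hMn hMt
  by_contra hcon
  push Not at hcon
  -- the image of M is not normal in G
  obtain ⟨g, m, hm, hgm⟩ : ∃ (g : G) (m : N), m ∈ M ∧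
      (⟨g * (m : G) * g⁻¹, hNn.conj_mem m m.2 g⟩ : N) ∉ M := by
    by_contra h
    push Not at h
    have hnormal : (M.map N.subtype).Normal := ⟨fun x hx g => by
      obtain ⟨m, hm, rfl⟩ := hx
      exact ⟨_, h g m hm, rfl⟩⟩
    have htr : IsPretransitive ↥(M.map N.subtype) Ω := ⟨fun y z => by
      obtain ⟨m, hm⟩ := hMt.exists_smul_eq y z
      exact ⟨⟨((m : N) : G), (m : N), m.2, rfl⟩, hm⟩⟩
    obtain ⟨c, hc⟩ := hZ.2.2.2.2 _ hnormal htr
    apply hc
    rw [eq_bot_iff]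
    rintro ⟨x, hx⟩ hfix
    obtain ⟨k, hk, rfl⟩ := hx
    have hk' : (⟨k, hk⟩ : M) ∈ stabilizer M c := hfix
    rw [hcon c, Subgroup.mem_bot] at hk'
    rw [Subgroup.mem_bot]
    exact Subtype.ext (congrArg (fun x : M => ((x : N) : G)) hk')
  let φ : N →* N :=
    { toFun := fun x => ⟨g * (x : G) * g⁻¹, hNn.conj_mem x x.2 g⟩
      map_one' := Subtype.ext (by simp)
      map_mul' := fun x y => Subtype.ext (by simp [mul_assoc]) }
  have hφ : Function.Surjective φ := fun x => ⟨⟨g⁻¹ * (x : G) * g, by simpa using hNn.conj_mem (x : G) x.2 g⁻¹⟩,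
    Subtype.ext (by show g * (g⁻¹ * (x : G) * g) * g⁻¹ = x; group)⟩
  set M' := M.map φ with hM'
  have hM'n : M'.Normal := hMn.map φ hφ
  have hM't : ∀ y z : Ω, ∃ x ∈ M', x • y = z := by
    intro y z
    obtain ⟨m, hm⟩ := hMt.exists_smul_eq (g⁻¹ • y) (g⁻¹ • z)
    refine ⟨φ m, ⟨m, m.2, rfl⟩, ?_⟩
    show (g * ((m : N) : G) * g⁻¹) • y = z
    have hm' : ((m : N) : G) • g⁻¹ • y = g⁻¹ • z := hm
    rw [mul_smul, mul_smul, hm', smul_inv_smul]
  have hMfree : ∀ x ∈ M, ∀ c : Ω, x • c = c → x = 1 := by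
    intro x hx c hc
    have : (⟨x, hx⟩ : M) ∈ stabilizer M c := hc
    rw [hcon c, Subgroup.mem_bot] at this
    exact congrArg Subtype.val this
  have hM'free : ∀ x ∈ M', ∀ c : Ω, x • c = c → x = 1 := by
    rintro _ ⟨k, hk, rfl⟩ c hc
    change (g * (k : G) * g⁻¹) • c = c at hc
    rw [mul_smul, mul_smul] at hc
    rw [hMfree k hk (g⁻¹ • c) (eq_inv_smul_iff.2 hc), map_one]
  have hinf : M ⊓ M' = ⊥ := by
    by_contra hne
    apply hgm
    have hinN : (M ⊓ M').Normal := inferInstance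
    have hmem : φ m ∈ M' := ⟨m, hm, rfl⟩
    obtain ⟨x, hx, hxa⟩ := normal_transitive h2N (M ⊓ M') hne a (φ m • a)
    have hxe : x⁻¹ * φ m = 1 := hM'free _ (M'.mul_mem (M'.inv_mem hx.2) hmem) a (by
      rw [mul_smul, ← hxa, inv_smul_smul])
    rw [inv_mul_eq_one] at hxe
    show φ m ∈ M
    rw [← hxe]; exact hx.1
  have hcomm : ∀ x ∈ M, ∀ y ∈ M', Commute x y := fun x hx y hy =>
    Subgroup.commute_of_normal_of_disjoint M M' hMn hM'n (disjoint_iff.2 hinf) x y hx hy
  have hsq : ∀ x ∈ M, x * x = 1 := by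
    intro x hx
    by_contra hx2
    obtain ⟨y, hy, hyx⟩ := hM't a (x • a)
    have hc := hcomm x hx y hy
    have hx1 : x ≠ 1 := fun h => hx2 (by rw [h, one_mul])
    have hd : ∀ z ∈ M, Commute z x → (y⁻¹ * x) • (z • a) = z • a := by
      intro z hz hzx
      have h1 : Commute (y⁻¹ * x) z := (((hcomm z hz y hy).symm).inv_left).mul_left hzx.symm
      rw [smul_smul, h1.eq, mul_smul, mul_smul, ← hyx, inv_smul_smul]
    have h0 := hd 1 M.one_mem (Commute.one_left x)
    rw [one_smul] at h0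
    have hone : y⁻¹ * x = 1 := by
      apply Subtype.ext
      refine three hZ (a := a) (b := x • a) (c := x⁻¹ • a) ?_ ?_ ?_ h0
        (hd x hx (Commute.refl x)) (hd x⁻¹ (M.inv_mem hx) (Commute.refl x).inv_left)
      · exact fun e => hx1 (hMfree x hx a e.symm)
      · exact fun e => hx2 (hMfree (x * x) (M.mul_mem hx hx) a (by rw [mul_smul, e, smul_inv_smul]))
      · exact fun e => hx1 (inv_eq_one.1 (hMfree x⁻¹ (M.inv_mem hx) a e.symm))
    rw [inv_mul_eq_one] at hone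
    have : x ∈ M ⊓ M' := ⟨hx, hone ▸ hy⟩
    rw [hinf, Subgroup.mem_bot] at this
    exact hx1 this
  have hab' : ∀ x ∈ M, ∀ z ∈ M, Commute x z := by
    intro x hx z hz
    have h := hsq (x * z) (M.mul_mem hx hz)
    show x * z = z * x
    calc x * z = (x * z)⁻¹ := (inv_eq_of_mul_eq_one_right h).symm
      _ = z * x := by rw [mul_inv_rev, inv_eq_of_mul_eq_one_right (hsq x hx), inv_eq_of_mul_eq_one_right (hsq z hz)]
  -- an element of M' is an element of M
  have hy : φ m ∈ M' := ⟨m, hm, rfl⟩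
  obtain ⟨⟨x, hx⟩, hxa⟩ := hMt.exists_smul_eq a (φ m • a)
  change x • a = φ m • a at hxa
  apply hgm
  show φ m ∈ M
  have : x⁻¹ * φ m = 1 := by
    apply Subtype.ext
    refine eq_one hZ fun c => ?_
    obtain ⟨⟨z, hz⟩, rfl⟩ := hMt.exists_smul_eq a c
    change ((x⁻¹ * φ m : N)) • (z • a) = z • a
    have h1 : Commute (x⁻¹ * φ m) z := ((hab' x hx z hz).inv_left).mul_left (hcomm z hz _ hy).symm
    rw [smul_smul, h1.eq, mul_smul, mul_smul, ← hxa, inv_smul_smul]
  rw [inv_mul_eq_one] at this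
  exact this ▸ hx

end

end Cfsg.Lib.Zassenhaus
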