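import Cfsg.Agent.Lib.Zassenhaus.Basic
import Cfsg.Agent.Lib.Solv.FrobeniusComplement
import Cfsg.Agent.Lib.Solv.MinNormal
import Cfsg.Agent.Lib.Solv.ThompsonKernel
import Cfsg.Agent.S0126
import Cfsg.Agent.S1526

/-!
# Zassenhaus groups: the two point stabilizer is abelian and inverted
-/

set_option autoImplicit false
set_option linter.style.haveILetI false
set_option linter.unusedSectionVars false

namespace Cfsg.Lib.Zassenhaus

open MulAction

variable {G Ω : Type*} [Group G] [Finite G] [MulAction G Ω] [Fintype Ω]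
  (hZ : Cfsg.IsZassenhausGroup G Ω) {a b : Ω} (hab : a ≠ b)

theorem swap_conj_mem {t x : G} (hta : t • a = b) (htb : t • b = a) (hx : x ∈ D G a b) :
    t * x * t⁻¹ ∈ D G a b := by
  refine mem_D.mpr ⟨?_, ?_⟩
  · rw [mul_smul, inv_smul_eq_iff.mpr htb.symm, mul_smul, hx.2, htb]
  · rw [mul_smul, inv_smul_eq_iff.mpr hta.symm, mul_smul, hx.1, hta]

theorem swap_mul_swap {t s : G} (hta : t • a = b) (htb : t • b = a) (hsa : s • a = b)
    (hsb : s • b = a) : t * s ∈ D G a b :=
  mem_D.mpr ⟨by rw [mul_smul, hsa, htb], by rw [mul_smul, hsb, hta]⟩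

include hZ hab

theorem conj_cases {g x : G} (hx1 : x ≠ 1) (hx : x ∈ D G a b) (hgx : g * x * g⁻¹ ∈ D G a b) :
    (g • a = a ∧ g • b = b) ∨ (g • a = b ∧ g • b = a) := by
  have hne : g * x * g⁻¹ ≠ 1 := by simpa using hx1
  have hfix : ∀ c : Ω, (g * x * g⁻¹) • c = c → c = a ∨ c = b := fun c hc => by
    by_contra h
    push Not at h
    exact hne (hZ.2.2.1 _ a b c hab (Ne.symm h.2) (Ne.symm h.1) hgx.1 hgx.2 hc)
  have ha := hfix (g • a) (by rw [mul_smul, inv_smul_smul, mul_smul, hx.1])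
  have hb := hfix (g • b) (by rw [mul_smul, inv_smul_smul, mul_smul, hx.2])
  have : g • a ≠ g • b := fun h => hab (MulAction.injective g h)
  rcases ha with ha | ha <;> rcases hb with hb | hb
  · exact absurd (ha.trans hb.symm) this
  · exact Or.inl ⟨ha, hb⟩
  · exact Or.inr ⟨ha, hb⟩
  · exact absurd (ha.trans hb.symm) this

theorem exists_swap_invol (hodd : Odd (Nat.card (D G a b))) :
    ∃ t : G, orderOf t = 2 ∧ t • a = b ∧ t • b = a := by
  obtain ⟨s, hsa, hsb⟩ := exists_move hZ hab hab.symm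
  obtain ⟨k, hk⟩ := hodd
  have hev : ∀ i : ℕ, s ^ (2 * i) • a = a ∧ s ^ (2 * i) • b = b := by
    intro i
    induction i with
    | zero => simp
    | succ i ih => rw [mul_add, pow_add, mul_smul, mul_smul]; simp [pow_two, mul_smul, hsa, hsb, ih]
  refine ⟨s ^ Nat.card (D G a b), ?_, ?_, ?_⟩
  · have h2 : (s ^ Nat.card (D G a b)) ^ 2 = 1 := by
      rw [← pow_mul, mul_comm, pow_mul, ← orderOf_dvd_iff_pow_eq_one, pow_two]
      exact (D G a b).orderOf_dvd_natCard (swap_mul_swap hsa hsb hsa hsb)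
    have hne : s ^ Nat.card (D G a b) ≠ 1 := by
      intro h
      have := congrArg (fun g : G => g • a) h
      simp only [hk, pow_succ, mul_smul, hsa, one_smul, (hev k).2] at this
      exact hab this.symm
    exact orderOf_eq_prime h2 hne
  · rw [hk, pow_succ, mul_smul, hsa, (hev k).2]
  · rw [hk, pow_succ, mul_smul, hsb, (hev k).1]

omit hab in
theorem not_commutative (a₀ : Ω) : ∃ x y : G, x * y ≠ y * x := by
  by_contra h
  push Not at h
  obtain ⟨c, hc⟩ := exists_ne' hZ a₀
  obtain ⟨g, hg, hg1⟩ := exists_fixer hZ hc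
  have := pretransitive hZ
  refine hg1 (eq_one hZ fun d => ?_)
  obtain ⟨w, rfl⟩ := MulAction.exists_smul_eq G a₀ d
  rw [← mul_smul, h, mul_smul, hg.1]

theorem coprime_index (hodd : Odd (Nat.card (D G a b))) :
    Nat.Coprime (Nat.card (D G a b)) (D G a b).index := by
  classical
  haveI : Fintype G := Fintype.ofFinite G
  obtain ⟨h, hh⟩ : ∃ h, Fintype.card Ω = h + 1 :=
    ⟨Fintype.card Ω - 1, by have := three_le hZ; omega⟩
  obtain ⟨hG, -, -, -⟩ := nfix_counts hZ hab hh rfl
  have hidx : (D G a b).index = h * (h + 1) := Nat.eq_of_mul_eq_mul_left Nat.card_pos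
    ((D G a b).card_mul_index.trans (hG.trans (mul_assoc _ _ _)))
  rw [hidx]
  refine Nat.coprime_of_dvd fun p hp hpe hpd => ?_
  have := Fact.mk hp
  obtain ⟨x, hx⟩ := exists_prime_orderOf_dvd_card' p hpe
  have hx1 : (x : G) ≠ 1 := fun e => hp.one_lt.ne' (by
    rw [← hx, ← Subgroup.orderOf_coe, e, orderOf_one])
  have hP : IsPGroup p (Subgroup.zpowers (x : G)) := IsPGroup.of_card (n := 1) (by
    rw [Nat.card_zpowers, Subgroup.orderOf_coe, hx, pow_one])
  have hfix : MulAction.fixedPoints (Subgroup.zpowers (x : G)) Ω = {a, b} := by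
    ext c
    constructor
    · intro hc
      by_contra hne
      simp only [Set.mem_insert_iff, Set.mem_singleton_iff, not_or] at hne
      exact hx1 (three hZ hab (Ne.symm hne.2) (Ne.symm hne.1) x.2.1 x.2.2 (hc ⟨x, Subgroup.mem_zpowers _⟩))
    · intro hc g
      obtain ⟨i, hi⟩ := Subgroup.mem_zpowers_iff.mp g.2
      show (g : G) • c = c
      rw [← hi]
      rcases hc with rfl | rfl
      · exact MulAction.mem_stabilizer_iff.mp (zpow_mem (show (x : G) ∈ stabilizer G c from x.2.1) i)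
      · exact MulAction.mem_stabilizer_iff.mp (zpow_mem (show (x : G) ∈ stabilizer G c from x.2.2) i)
  have hmod := hP.card_modEq_card_fixedPoints Ω
  rw [hfix, Nat.card_eq_fintype_card, hh, Nat.card_coe_set_eq, Set.ncard_pair hab] at hmod
  have h2 : ¬ p ∣ 2 := fun hd => by
    rw [(Nat.prime_dvd_prime_iff_eq hp Nat.prime_two).mp hd] at hpe
    exact Nat.not_even_iff_odd.mpr hodd (even_iff_two_dvd.mpr hpe)
  rcases hp.dvd_mul.mp hpd with hd | hd
  · have : (1 : ℕ) ≡ 2 [MOD p] := by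
      refine Nat.ModEq.trans ?_ hmod
      have := (Nat.modEq_zero_iff_dvd.mpr hd).add_right 1
      simpa using this.symm
    exact hp.one_lt.ne' (Nat.dvd_one.mp (by simpa using (Nat.modEq_iff_dvd' (by omega)).mp this))
  · exact h2 (Nat.modEq_zero_iff_dvd.mp (hmod.symm.trans (Nat.modEq_zero_iff_dvd.mpr hd)))

/-- A linear character of the two point stabilizer invariant under the swap is principal. -/
theorem hom_eq_one_of_invariant [IsSimpleGroup G] (hodd : Odd (Nat.card (D G a b))) {t : G}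
    (hta : t • a = b) (htb : t • b = a) (μ : D G a b →* ℂˣ)
    (hinv : ∀ x : D G a b, μ ⟨t * x * t⁻¹, swap_conj_mem hta htb x.2⟩ = μ x) : μ = 1 := by
  classical
  haveI : Fintype (Quotient (MulAction.orbitRel G (G ⧸ (D G a b)))) := Fintype.ofFinite _
  set V := MonoidHom.transfer μ with hV
  have hval : ∀ x : (D G a b), V (x : G) = μ x ^ (D G a b).index := by
    intro x
    let _ : Fintype (Quotient (MulAction.orbitRel (Subgroup.zpowers (x : G)) (G ⧸ (D G a b)))) := Fintype.ofFinite _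
    let _ := (D G a b).fintypeQuotientOfFiniteIndex
    rw [hV, MonoidHom.transfer_eq_prod_quotient_orbitRel_zpowers_quot,
      Subgroup.index_eq_sum_minimalPeriod (D G a b) (x : G), ← Finset.prod_pow_eq_pow_sum]
    refine Finset.prod_congr rfl fun q _ => ?_
    set k := Function.minimalPeriod ((x : G) • ·) q.out with hk
    set g₀ := q.out.out with hg₀
    have hmem : g₀⁻¹ * (x : G) ^ k * g₀ ∈ (D G a b) := QuotientGroup.out_conj_pow_minimalPeriod_mem (D G a b) (x : G) q.out
    show μ ⟨g₀⁻¹ * (x : G) ^ k * g₀, hmem⟩ = μ x ^ k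
    by_cases hxk : (x : G) ^ k = 1
    · rw [← map_pow]
      congr 1
      exact Subtype.ext (by simp [hxk])
    rw [← map_pow]
    rcases conj_cases hZ hab (g := g₀⁻¹) hxk ((D G a b).pow_mem x.2 k) (by rwa [inv_inv]) with h | h
    · have hg : g₀⁻¹ ∈ (D G a b) := h
      rw [show (⟨g₀⁻¹ * (x : G) ^ k * g₀, hmem⟩ : (D G a b)) = ⟨g₀⁻¹, hg⟩ * x ^ k * (⟨g₀⁻¹, hg⟩ : (D G a b))⁻¹ from
        Subtype.ext (by simp), map_mul, map_mul, map_inv, mul_right_comm, mul_inv_cancel, one_mul]
    · have hz : t * g₀⁻¹ ∈ (D G a b) := swap_mul_swap hta htb h.1 h.2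
      have key := hinv ⟨g₀⁻¹ * (x : G) ^ k * g₀, hmem⟩
      rw [← key, show (⟨t * (g₀⁻¹ * (x : G) ^ k * g₀) * t⁻¹, swap_conj_mem hta htb hmem⟩ : (D G a b)) =
        ⟨t * g₀⁻¹, hz⟩ * x ^ k * (⟨t * g₀⁻¹, hz⟩ : (D G a b))⁻¹ from Subtype.ext (by simp [mul_assoc]),
        map_mul, map_mul, map_inv, mul_right_comm, mul_inv_cancel, one_mul]
  have hV1 : V = 1 := by
    rcases (IsSimpleGroup.eq_bot_or_eq_top_of_normal V.ker inferInstance) with h | h
    · exfalso
      obtain ⟨x, y, hxy⟩ := not_commutative hZ a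
      exact hxy ((MonoidHom.ker_eq_bot_iff _).mp h (by rw [map_mul, map_mul, mul_comm]))
    · exact MonoidHom.ker_eq_top_iff.mp h
  ext1 x
  have h1 : μ x ^ (D G a b).index = 1 := by rw [← hval, hV1, MonoidHom.one_apply]
  have h2 : μ x ^ Nat.card (D G a b) = 1 := by rw [← map_pow, pow_card_eq_one', map_one]
  have h3 := pow_gcd_eq_one.mpr ⟨h1, h2⟩
  rwa [Nat.Coprime.gcd_eq_one (coprime_index hZ hab hodd).symm, pow_one] at h3

theorem isCyclic_sylow (hodd : Odd (Nat.card (D G a b))) (p : ℕ) (hp : p.Prime)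
    (P : Sylow p (D G a b)) : IsCyclic P := by
  have := Fact.mk hp
  by_contra hnc
  have hp2 : p ≠ 2 := by
    rintro rfl
    refine hnc ?_
    obtain ⟨n, hn⟩ := IsPGroup.iff_card.1 P.2
    have hbot : (P : Subgroup (D G a b)) = ⊥ := by
      rcases n with _ | n
      · exact Subgroup.eq_bot_of_card_eq _ (by rw [hn, pow_zero])
      · exact absurd ((dvd_pow_self 2 n.succ_ne_zero).trans
          (hn ▸ Subgroup.card_subgroup_dvd_card (P : Subgroup (D G a b))))
          (Nat.two_dvd_ne_zero.2 (Nat.odd_iff.1 hodd))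
    show IsCyclic ↥(P : Subgroup (D G a b))
    rw [hbot]; infer_instance
  obtain ⟨H, hHa, hHc, hHfix⟩ := exists_kernel hZ a
  set S := stabilizer G a with hS
  have hN := normalizer_kernel hZ hHa hHc hHfix
  have hEH : ∀ x ∈ D G a b, x ∈ H → x = 1 := fun x hx hxH => by
    by_contra h
    exact hab (hHfix x hxH h b hx.2).symm
  have hKn : (H.subgroupOf S).Normal :=
    (Subgroup.normal_subgroupOf_iff_le_normalizer hHa).mpr hN.ge
  have hKne : H.subgroupOf S ≠ ⊤ := by
    intro h
    obtain ⟨x, hx, hx1⟩ := exists_fixer hZ hab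
    have : (⟨x, hx.1⟩ : S) ∈ H.subgroupOf S := h ▸ Subgroup.mem_top _
    exact hx1 (hEH x hx this)
  obtain ⟨φ, r, hφ⟩ := Cfsg.Agent.S1526.exists_fpf (H.subgroupOf S) hKne (fun k hk hk1 x hx => by
    refine centralizer_kernel_le hZ hHa hHc hHfix hk (fun h => hk1 (Subtype.ext h)) ?_
    exact Subgroup.mem_centralizer_singleton_iff.mpr
      (congrArg Subtype.val (Subgroup.mem_centralizer_singleton_iff.mp hx)))
  have : Group.IsNilpotent (H.subgroupOf S) := Cfsg.Lib.Solv.ThompsonKernel.fpf_isNilpotent hφ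
  have hnil : Group.IsNilpotent H :=
    Group.nilpotent_of_mulEquiv (Subgroup.subgroupOfEquivOfLe hHa)
  have : Nontrivial H := (Subgroup.nontrivial_iff_ne_bot H).mpr (kernel_ne_bot hZ hHa hHc hHfix)
  set V := (Subgroup.center H).map H.subtype with hV
  have hVne : V ≠ ⊥ := by
    rw [hV, Ne, Subgroup.map_eq_bot_iff_of_injective _ H.subtype_injective]
    exact Group.IsNilpotent.center_ne_bot _
  have : IsMulCommutative V := ⟨⟨fun x y => Subtype.ext (by
    obtain ⟨u, hu, hux⟩ := x.2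
    obtain ⟨v, hv, hvy⟩ := y.2
    show (x : G) * y = y * x
    rw [← hux, ← hvy]
    exact congrArg Subtype.val (Subgroup.mem_center_iff.mp hv u))⟩⟩
  have hVn : D G a b ≤ Subgroup.normalizer (V : Set G) := by
    intro g hg
    have hgN : g ∈ Subgroup.normalizer (H : Set G) := hN ▸ hg.1
    have key : ∀ m ∈ Subgroup.normalizer (H : Set G), ∀ x ∈ V, m * x * m⁻¹ ∈ V := by
      rintro m hm _ ⟨u, hu, rfl⟩
      refine ⟨⟨m * u * m⁻¹, (Subgroup.mem_normalizer_iff.mp hm u).mp u.2⟩, ?_, rfl⟩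
      refine Subgroup.mem_center_iff.mpr fun v => Subtype.ext ?_
      have h1 := congrArg Subtype.val (Subgroup.mem_center_iff.mp hu
        ⟨m⁻¹ * v * m, (Subgroup.mem_normalizer_iff''.mp hm v).mp v.2⟩)
      simp only [Subgroup.coe_mul] at h1 ⊢
      calc (v : G) * (m * u * m⁻¹) = m * ((m⁻¹ * v * m) * u) * m⁻¹ := by group
        _ = m * (u * (m⁻¹ * v * m)) * m⁻¹ := by rw [h1]
        _ = _ := by group
    refine Subgroup.mem_normalizer_iff.mpr fun x => ⟨key g hgN x, fun h => ?_⟩
    simpa [mul_assoc] using key g⁻¹ (inv_mem hgN) _ h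
  have hfpf : ∀ x ∈ D G a b, x ≠ 1 → V ⊓ Subgroup.centralizer ({x} : Set G) = ⊥ := by
    intro x hx hx1
    rw [eq_bot_iff]
    intro v hv
    rw [Subgroup.mem_bot]
    by_contra hv1
    have hvH : v ∈ H := Subgroup.map_subtype_le _ hv.1
    refine hx1 (hEH x hx (centralizer_kernel_le hZ hHa hHc hHfix hvH hv1 ?_))
    exact Subgroup.mem_centralizer_singleton_iff.mpr (Subgroup.mem_centralizer_singleton_iff.mp hv.2).symm
  obtain ⟨A, -, hAe, hAc⟩ := Cfsg.Agent.S0126.result hp2 P.2 hnc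
  obtain ⟨x, hx⟩ := exists_prime_orderOf_dvd_card' (G := A) p (hAc ▸ dvd_pow_self p two_ne_zero)
  have hle : A ≤ Subgroup.zpowers (x : P) := by
    intro y hy
    by_cases hy1 : y = 1
    · rw [hy1]; exact one_mem _
    exact Cfsg.Lib.Solv.FrobCompl.mem_zpowers_of_pgroup (V := V) hVne hVn hfpf
      (P : Subgroup (D G a b)) P.2 (by rw [Subgroup.orderOf_coe]; exact hx)
      (orderOf_eq_prime (hAe.2 y hy) hy1)
  have := Subgroup.card_le_of_le hle
  rw [hAc, Nat.card_zpowers, Subgroup.orderOf_coe, hx] at this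
  nlinarith [hp.two_le]

/-- The two point stabilizer is abelian and every swap inverts it. -/
theorem commutative_and_inverts [IsSimpleGroup G] (hodd : Odd (Nat.card (D G a b))) {t : G}
    (ht : orderOf t = 2) (hta : t • a = b) (htb : t • b = a) :
    (∀ x ∈ D G a b, ∀ y ∈ D G a b, x * y = y * x) ∧ ∀ x ∈ D G a b, t * x * t⁻¹ = x⁻¹ := by
  classical
  set E := D G a b with hE
  have ht2 : t * t = 1 := by rw [← pow_two, ← ht, pow_orderOf_eq_one]
  have : IsZGroup E := ⟨fun p hp P => isCyclic_sylow hZ hab hodd p hp P⟩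
  let σ : E →* E :=
    ((MulAut.conj t).toMonoidHom.comp E.subtype).codRestrict E fun x => swap_conj_mem hta htb x.2
  have hσ : ∀ x : E, (σ x : G) = t * x * t⁻¹ := fun x => rfl
  have hσσ : ∀ x : E, σ (σ x) = x := fun x => Subtype.ext (by
    rw [hσ, hσ, inv_eq_of_mul_eq_one_right ht2, mul_assoc t (t * (x : G) * t) t,
      show t * (x : G) * t * t = t * x by rw [mul_assoc, ht2, mul_one], ← mul_assoc, ht2, one_mul])
  -- every element is inverted modulo the commutator subgroup
  have hmod : ∀ x : E, x * σ x ∈ commutator E := by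
    intro x
    rw [← Abelianization.ker_of, MonoidHom.mem_ker]
    by_contra hne
    obtain ⟨f, hf⟩ := CommGroup.exists_apply_ne_one_of_hasEnoughRootsOfUnity (Abelianization E) ℂ hne
    set μ : E →* ℂˣ := f.comp Abelianization.of with hμ
    have hμinv : μ * μ.comp σ = 1 := by
      refine hom_eq_one_of_invariant hZ hab hodd hta htb _ fun y => ?_
      show μ (σ y) * μ (σ (σ y)) = μ y * μ (σ y)
      rw [hσσ, mul_comm]
    apply hf
    have := DFunLike.congr_fun hμinv x
    show μ (x * σ x) = 1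
    rw [map_mul]
    exact this
  -- the commutator subgroup is central
  have hcyc : IsCyclic (commutator E) := IsZGroup.isCyclic_commutator _
  have hcentral : commutator E ≤ Subgroup.center E := by
    obtain ⟨⟨g, hg⟩, hgen⟩ := hcyc.exists_generator
    have hgen' : ∀ y ∈ commutator E, ∃ i : ℤ, g ^ i = y := fun y hy => by
      obtain ⟨i, hi⟩ := Subgroup.mem_zpowers_iff.mp (hgen ⟨y, hy⟩)
      exact ⟨i, congrArg Subtype.val hi⟩
    have hchar : ∀ y ∈ commutator E, σ y ∈ commutator E := fun y hy => by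
      have : Abelianization.of (σ y) = 1 := by
        rw [← Abelianization.map_of σ, show Abelianization.of y = 1 from MonoidHom.mem_ker.mp ((Abelianization.ker_of E).symm ▸ hy), map_one]
      rw [← Abelianization.ker_of]; exact this
    obtain ⟨i, hi⟩ := hgen' _ (hchar g hg)
    intro y hy
    obtain ⟨j, rfl⟩ := hgen' y hy
    refine Subgroup.zpow_mem _ ?_ j
    rw [Subgroup.mem_center_iff]
    intro x
    obtain ⟨m, hm⟩ := hgen' _ ((Subgroup.Normal.conj_mem inferInstance g hg x))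
    have hm' : ∀ l : ℤ, x * g ^ l * x⁻¹ = g ^ (m * l) := fun l => by rw [← conj_zpow, ← hm, zpow_mul]
    -- the image of `x` acts as `x` does
    have hsx : σ x * g * (σ x)⁻¹ = g ^ m := by
      have hgg : (g ^ i) ^ i = g := by
        rw [show (g ^ i) ^ i = (σ g) ^ i by rw [hi], ← map_zpow, hi, hσσ]
      calc σ x * g * (σ x)⁻¹ = σ (x * g ^ i * x⁻¹) := by
            rw [map_mul, map_mul, map_inv, map_zpow, ← hi, hgg]
        _ = (σ g) ^ (m * i) := by rw [hm', map_zpow]
        _ = g ^ m := by rw [← hi, ← zpow_mul, mul_left_comm, ← mul_comm (i * i) m, zpow_mul, zpow_mul, hgg]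
    -- but it also acts as the inverse of `x`
    obtain ⟨l, hl⟩ := hgen' _ (hmod x)
    have hsx' : σ x * g * (σ x)⁻¹ = x⁻¹ * g * x := by
      have : σ x = x⁻¹ * g ^ l := by rw [hl]; group
      rw [this]; group
    have h2 : x ^ 2 * g * (x ^ 2)⁻¹ = g := by
      rw [pow_two]
      calc x * x * g * (x * x)⁻¹ = x * (x * g * x⁻¹) * x⁻¹ := by group
        _ = x * (x⁻¹ * g * x) * x⁻¹ := by rw [← hm, ← hsx, hsx']
        _ = g := by group
    obtain ⟨k, hk⟩ := hodd
    have hx : x = (x ^ 2) ^ (k + 1) := by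
      rw [← pow_mul, show 2 * (k + 1) = Nat.card E + 1 by omega, pow_succ, pow_card_eq_one', one_mul]
    have hc2 : Commute (x ^ 2) g := mul_inv_eq_iff_eq_mul.mp h2
    rw [hx]
    exact (hc2.pow_left _).eq
  have : Group.IsNilpotent E := Cfsg.Lib.Solv.nilpotent_of_commutator_le_center hcentral
  have hE' : IsCyclic E := inferInstance
  have hcomm : ∀ x y : E, x * y = y * x := fun x y => hE'.isMulCommutative.is_comm.comm x y
  have hbot : commutator E = ⊥ := by
    rw [commutator_def, Subgroup.commutator_eq_bot_iff_le_centralizer]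
    intro x _ y _
    exact hcomm y x
  refine ⟨fun x hx y hy => congrArg Subtype.val (hcomm ⟨x, hx⟩ ⟨y, hy⟩), fun x hx => ?_⟩
  have := hmod ⟨x, hx⟩
  rw [hbot, Subgroup.mem_bot] at this
  exact (congrArg Subtype.val (eq_inv_of_mul_eq_one_right this)).trans (by simp)

theorem swap_orderOf [IsSimpleGroup G] (hodd : Odd (Nat.card (D G a b))) {g : G}
    (hga : g • a = b) (hgb : g • b = a) : orderOf g = 2 := by
  obtain ⟨t, ht, hta, htb⟩ := exists_swap_invol hZ hab hodd
  have ht2 : t * t = 1 := by rw [← pow_two, ← ht, pow_orderOf_eq_one]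
  have hz := swap_mul_swap hta htb hga hgb
  have h := (commutative_and_inverts hZ hab hodd ht hta htb).2 _ hz
  refine orderOf_eq_prime ?_ fun h1 => hab (by rw [← hga, h1, one_smul])
  rw [← mul_assoc t t g, ht2, one_mul, mul_inv_rev, inv_eq_of_mul_eq_one_right ht2] at h
  rw [pow_two]
  calc g * g = g * (g * t) * t := by rw [mul_assoc, mul_assoc, ht2, mul_one]
    _ = g * (g⁻¹ * t) * t := by rw [h]
    _ = 1 := by rw [← mul_assoc, mul_inv_cancel, one_mul, ht2]

end Cfsg.Lib.Zassenhaus
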